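-- Team project SUG (S2412), [BASE3] sub-package [G0] (helper80): the mixing element `g₀ = E * σ`.
import Cfsg.Agent.Lib.Helper92.SUG.Defs3
import Cfsg.Agent.Lib.Helper13.HermEmb
import Cfsg.Agent.Lib.Helper13.SUGen1
import Cfsg.Agent.Lib.Helper97.SUG.GCyc

set_option autoImplicit false
set_option linter.unusedSectionVars false

namespace Cfsg.Agent.Lib.Helper80.SUG

open Matrix Cfsg.Agent.Lib.Helper45 Cfsg.Agent.Lib.Helper44 Cfsg.Agent.Lib.Helper13
open Cfsg.Agent.Lib.Helper92.SUG

universe u

section emb

variable {F : Type u} [Field F] [Fintype F] {q n m : ℕ}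

/-- the embedding `e_j ↦ e_{j+3}`. -/
def embB (n m : ℕ) (F : Type u) [Field F] : Matrix (Fin n) (Fin m) F :=
  Matrix.of fun i j => if (i : ℕ) = (j : ℕ) + 3 then 1 else 0

theorem embB_mulVec (hnm : n = m + 3) (ξ : Fin m → F) (i : Fin n) :
    (embB n m F *ᵥ ξ) i = if h : 3 ≤ (i : ℕ) then ξ ⟨(i : ℕ) - 3, by omega⟩ else 0 := by
  by_cases h : 3 ≤ (i : ℕ)
  · rw [dif_pos h]
    simp only [Matrix.mulVec, dotProduct, embB, Matrix.of_apply]
    rw [Finset.sum_eq_single (⟨(i : ℕ) - 3, by omega⟩ : Fin m)]
    · have h1 : (i : ℕ) = (i : ℕ) - 3 + 3 := by omega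
      simp only []
      rw [if_pos h1, one_mul]
    · intro j _ hj
      rw [if_neg, zero_mul]
      intro h2
      apply hj
      apply Fin.ext
      simp only []
      omega
    · intro h3
      exact absurd (Finset.mem_univ _) h3
  · rw [dif_neg h]
    simp only [Matrix.mulVec, dotProduct, embB, Matrix.of_apply]
    apply Finset.sum_eq_zero
    intro j _
    rw [if_neg (by omega), zero_mul]

theorem cT_embB_mulVec (hq : q ≠ 0) (hnm : n = m + 3) (x : Fin n → F) (j : Fin m) :
    (cT q (embB n m F) *ᵥ x) j = x ⟨(j : ℕ) + 3, by omega⟩ := by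
  simp only [Matrix.mulVec, dotProduct, cT, embB, Matrix.of_apply]
  rw [Finset.sum_eq_single (⟨(j : ℕ) + 3, by omega⟩ : Fin n)]
  · simp
  · intro i _ hi
    rw [if_neg, zero_pow hq, zero_mul]
    intro h2
    apply hi
    apply Fin.ext
    exact h2
  · intro h3
    exact absurd (Finset.mem_univ _) h3

theorem isIsoEmb_embB (hF : Fintype.card F = q ^ 2) (hnm : n = m + 3) :
    IsIsoEmb q (embB n m F) := by
  have hq : q ≠ 0 := by have := two_le_q hF; omega
  intro x y
  rw [herm_mulVec_right hF]
  congr 1
  funext j
  rw [cT_embB_mulVec hq hnm, embB_mulVec hnm, dif_pos (by simp)]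
  congr 1

end emb

/-- [G0] the mixing element `g₀ = E * σ`. -/
theorem pkgG0 : PkgG0.{u} := by
  intro F _ _ q n hF h4 v hv hvv
  classical
  have hq2 : 2 ≤ q := two_le_q hF
  have hq : q ≠ 0 := by omega
  obtain ⟨m, hnm⟩ : ∃ m, n = m + 3 := ⟨n - 3, by omega⟩
  have hm : 1 ≤ m := by omega
  obtain ⟨c, hc1, hc2⟩ := Cfsg.Agent.Lib.Helper97.SUG.pkgGCyc (q := q) hF m hm
  set A : Matrix (Fin m) (Fin m) F := Cfsg.Agent.Lib.Helper60.SUG.mat c with hA
  have hAiso : IsHermIso m F q A := c.2
  have hAdet : A.det = 1 := c.1.2
  set B : Matrix (Fin n) (Fin m) F := embB n m F with hB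
  have hBiso : IsIsoEmb q B := isIsoEmb_embB hF hnm
  set S : Matrix (Fin n) (Fin n) F := isoLift q B A with hS
  have hSiso : IsHermIso n F q S := isHermIso_isoLift hF hBiso hAiso
  have hSdet : S.det = 1 := by rw [hS, det_isoLift hF hBiso, hAdet]
  set e3 : Fin n → F := Pi.single (⟨3, by omega⟩ : Fin n) 1 with he3
  have hm1 : ((-1 : F)) ^ q = -1 := by
    have h1 := Cfsg.Agent.Lib.Helper97.SUG.neg_one_pow_q hF
    rw [pow_succ] at h1
    linear_combination -h1
  obtain ⟨κ, hκ⟩ := exists_trace_eq hF (-1 : F) hm1
  have he3v : Cfsg.hermForm n F q e3 v = 0 := by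
    rw [he3, herm_single_left hF, hv _ (le_refl 3), zero_pow hq]
  have hve3 : Cfsg.hermForm n F q v e3 = 0 := by
    rw [he3, herm_single_right hq, hv _ (le_refl 3)]
  have he3e3 : Cfsg.hermForm n F q e3 e3 = 1 := by
    rw [he3, herm_single_right hq]
    simp
  set E : Matrix (Fin n) (Fin n) F := siegel q v e3 κ with hE
  have hEiso : IsHermIso n F q E :=
    isHermIso_siegel hF v e3 κ hvv he3v (by rw [he3e3]; linear_combination hκ)
  have hEdet : E.det = 1 := det_siegel v e3 κ hvv he3v hve3
  have hdet : (E * S).det = 1 := by rw [Matrix.det_mul, hEdet, hSdet, one_mul]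
  refine ⟨suMk (E * S) hdet (isHermIso_mul hEiso hSiso), κ, ?_, ?_, ?_⟩
  · intro x hx
    show (E * S) *ᵥ x = _
    have hSx : S *ᵥ x = x := by
      apply isoLift_mulVec_perp
      funext j
      rw [cT_embB_mulVec hq hnm, hx _ (by simp)]
      rfl
    have hxe3 : Cfsg.hermForm n F q x e3 = 0 := by
      rw [he3, herm_single_right hq, hx _ (le_refl 3)]
    rw [← Matrix.mulVec_mulVec, hSx, hE, siegel_mulVec v e3 κ hvv, hxe3, zero_smul, sub_zero]
  · intro k hk hk4
    show (E * S) *ᵥ _ = _
    have hBsingle : ∀ j : Fin m, B *ᵥ (Pi.single j 1) =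
        Pi.single (⟨(j : ℕ) + 3, by omega⟩ : Fin n) 1 := by
      intro j
      funext i
      rw [hB, embB_mulVec hnm]
      by_cases h : 3 ≤ (i : ℕ)
      · rw [dif_pos h]
        simp only [Pi.single_apply]
        congr 1
        apply propext
        constructor
        · intro h1
          apply Fin.ext
          have h2 := congrArg Fin.val h1
          simp only [] at h2 ⊢
          omega
        · intro h1
          apply Fin.ext
          have h2 := congrArg Fin.val h1
          simp only [] at h2 ⊢
          omega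
      · rw [dif_neg h, Pi.single_apply, if_neg]
        intro h1
        have h2 := congrArg Fin.val h1
        simp only [] at h2
        omega
    have hAsingle : A *ᵥ (Pi.single (⟨k - 4, by omega⟩ : Fin m) 1) =
        Pi.single (⟨k - 3, by omega⟩ : Fin m) 1 := by
      funext j
      by_cases hj0 : (j : ℕ) = 0
      · rw [hc2 _ ⟨m - 1, by omega⟩ j hj0 (by simp only []; omega)]
        rw [Pi.single_apply, if_neg, mul_zero, Pi.single_apply, if_neg]
        · intro h1
          have h2 := congrArg Fin.val h1
          simp only [] at h2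
          omega
        · intro h1
          have h2 := congrArg Fin.val h1
          simp only [] at h2
          omega
      · rw [hc1 _ ⟨(j : ℕ) - 1, by omega⟩ j (by simp only []; omega)]
        simp only [Pi.single_apply]
        congr 1
        apply propext
        constructor
        · intro h1
          apply Fin.ext
          have h2 := congrArg Fin.val h1
          simp only [] at h2 ⊢
          omega
        · intro h1
          apply Fin.ext
          have h2 := congrArg Fin.val h1
          simp only [] at h2 ⊢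
          omega
    have h1 : (Pi.single (⟨k - 1, by omega⟩ : Fin n) (1 : F) : Fin n → F) =
        B *ᵥ (Pi.single (⟨k - 4, by omega⟩ : Fin m) 1) := by
      rw [hBsingle]
      congr 1
      apply Fin.ext
      simp only []
      omega
    have h2 : (Pi.single (⟨k, hk⟩ : Fin n) (1 : F) : Fin n → F) =
        B *ᵥ (Pi.single (⟨k - 3, by omega⟩ : Fin m) 1) := by
      rw [hBsingle]
      congr 1
      apply Fin.ext
      simp only []
      omega
    have hkv : Cfsg.hermForm n F q (Pi.single (⟨k, hk⟩ : Fin n) 1) v = 0 := by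
      rw [herm_single_left hF, hv _ (by simp only []; omega), zero_pow hq]
    have hke3 : Cfsg.hermForm n F q (Pi.single (⟨k, hk⟩ : Fin n) 1) e3 = 0 := by
      rw [he3, herm_single_right hq, Pi.single_apply, if_neg]
      intro h3
      have h4' := congrArg Fin.val h3
      simp only [] at h4'
      omega
    rw [← Matrix.mulVec_mulVec, h1, hS, isoLift_mulVec_emb hF hBiso, hAsingle, ← h2, hE,
      siegel_mulVec v e3 κ hvv, hkv, hke3]
    simp
  · intro t ht htv
    apply su_ext
    show (E * S) * mat t = mat t * (E * S)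
    set T : Matrix (Fin n) (Fin n) F := mat t with hT
    have hTiso : IsHermIso n F q T := t.2
    have hTe3 : T *ᵥ e3 = e3 := by
      rw [he3]
      funext i
      rw [Matrix.mulVec_single_one]
      show T i ⟨3, by omega⟩ = _
      rw [ht i ⟨3, by omega⟩ (Or.inr (le_refl 3)), Matrix.one_apply, Pi.single_apply]
    have hTE : T * E = E * T := by
      have h1 := siegel_conj hTiso v e3 κ hvv
      rw [htv, hTe3] at h1
      exact h1
    have hTB : T * B = B := by
      ext i j
      rw [Matrix.mul_apply, Finset.sum_eq_single (⟨(j : ℕ) + 3, by omega⟩ : Fin n)]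
      · rw [ht i ⟨(j : ℕ) + 3, by omega⟩ (Or.inr (by simp only []; omega)), Matrix.one_apply]
        simp only [hB, embB, Matrix.of_apply]
        simp [Fin.ext_iff]
      · intro k _ hk
        have h1 : B k j = 0 := by
          simp only [hB, embB, Matrix.of_apply]
          rw [if_neg]
          intro h2
          apply hk
          apply Fin.ext
          exact h2
        rw [h1, mul_zero]
      · intro h3
        exact absurd (Finset.mem_univ _) h3
    have hBT : cT q B * T = cT q B := by
      ext j i
      rw [Matrix.mul_apply, Finset.sum_eq_single (⟨(j : ℕ) + 3, by omega⟩ : Fin n)]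
      · rw [ht ⟨(j : ℕ) + 3, by omega⟩ i (Or.inl (by simp only []; omega)), Matrix.one_apply]
        simp only [hB, cT, embB, Matrix.of_apply]
        by_cases h1 : (i : ℕ) = (j : ℕ) + 3
        · have h2 : (⟨(j : ℕ) + 3, by omega⟩ : Fin n) = i := Fin.ext h1.symm
          simp [h1, h2]
        · have h2 : (⟨(j : ℕ) + 3, by omega⟩ : Fin n) ≠ i := by
            intro h3
            apply h1
            have h4' := congrArg Fin.val h3
            simp only [] at h4'
            omega
          simp [h1, h2, hq]
      · intro k _ hk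
        have h1 : cT q B j k = 0 := by
          simp only [hB, cT, embB, Matrix.of_apply]
          rw [if_neg, zero_pow hq]
          intro h2
          apply hk
          apply Fin.ext
          exact h2
        rw [h1, zero_mul]
      · intro h3
        exact absurd (Finset.mem_univ _) h3
    have hTS : T * S = S * T := by
      rw [hS]
      unfold isoLift
      rw [Matrix.mul_add, Matrix.add_mul, Matrix.mul_one, Matrix.one_mul, ← Matrix.mul_assoc,
        ← Matrix.mul_assoc, hTB, Matrix.mul_assoc (B * (A - 1)) (cT q B) T, hBT]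
    calc (E * S) * T = E * (S * T) := by rw [Matrix.mul_assoc]
      _ = E * (T * S) := by rw [hTS]
      _ = (E * T) * S := by rw [Matrix.mul_assoc]
      _ = (T * E) * S := by rw [hTE]
      _ = T * (E * S) := by rw [Matrix.mul_assoc]

end Cfsg.Agent.Lib.Helper80.SUG
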