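-- Team project SUG (S2412), leaf [GTOR] (helper80): the torus element.
import Cfsg.Agent.Lib.Helper60.SUG.GenDefs
import Cfsg.Agent.Lib.Helper13.SUParab
import Cfsg.Agent.Lib.Helper13.SUGen1

set_option autoImplicit false
set_option linter.unusedSectionVars false

namespace Cfsg.Agent.Lib.Helper80.SUG

open Matrix Cfsg.Agent.Lib.Helper45 Cfsg.Agent.Lib.Helper44 Cfsg.Agent.Lib.Helper13
open Cfsg.Agent.Lib.Helper60.SUG

universe u

section tools

variable {F : Type u} [Field F] [Fintype F] {q n : ℕ}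

/-- the Hermitian form of two vectors, the first supported on the coordinates `0, 1`. -/
theorem herm_two80 (hn : 2 ≤ n) (a b : Fin n → F) (ha : ∀ i : Fin n, 2 ≤ (i : ℕ) → a i = 0) :
    Cfsg.hermForm n F q a b =
      a ⟨0, by omega⟩ * b ⟨0, by omega⟩ ^ q + a ⟨1, by omega⟩ * b ⟨1, by omega⟩ ^ q := by
  unfold Cfsg.hermForm
  apply Finset.sum_eq_add
  · intro h
    have := congrArg Fin.val h
    simp at this
  · intro c _ hc
    have h2 : 2 ≤ (c : ℕ) := by
      have h0 : (c : ℕ) ≠ 0 := fun h => hc.1 (Fin.ext h)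
      have h1 : (c : ℕ) ≠ 1 := fun h => hc.2 (Fin.ext h)
      omega
    rw [ha c h2, zero_mul]
  · intro h; exact absurd (Finset.mem_univ _) h
  · intro h; exact absurd (Finset.mem_univ _) h

/-- the Hermitian form of a vector vanishing on the coordinates `0, 1` and a vector supported
there. -/
theorem herm_zero80 (hq : q ≠ 0) (a b : Fin n → F) (ha : ∀ i : Fin n, (i : ℕ) < 2 → a i = 0)
    (hb : ∀ i : Fin n, 2 ≤ (i : ℕ) → b i = 0) : Cfsg.hermForm n F q a b = 0 := by
  unfold Cfsg.hermForm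
  apply Finset.sum_eq_zero
  intro i _
  by_cases hi : (i : ℕ) < 2
  · rw [ha i hi, zero_mul]
  · rw [hb i (by omega), zero_pow hq, mul_zero]

/-- `hypDil` is multiplicative in the scalar. -/
theorem hypDil_mul80 (e f : Fin n → F) (a b : F) (hee : Cfsg.hermForm n F q e e = 0)
    (hff : Cfsg.hermForm n F q f f = 0) (hef : Cfsg.hermForm n F q e f = 1)
    (hfe : Cfsg.hermForm n F q f e = 1) :
    hypDil q e f a * hypDil q e f b = hypDil q e f (a * b) := by
  classical
  apply Matrix.toLin'.injective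
  apply LinearMap.ext
  intro x
  rw [Matrix.toLin'_apply, Matrix.toLin'_apply, ← Matrix.mulVec_mulVec,
    hypDil_mulVec e f b hff, hypDil_mulVec e f a hff, hypDil_mulVec e f (a * b) hff]
  simp only [herm_add_left, herm_smul_left, hee, hff, hef, hfe, mul_pow, mul_inv]
  module

theorem hypDil_one80 (e f : Fin n → F) : hypDil q e f 1 = 1 := by
  unfold hypDil
  simp

theorem hypDil_pow80 (e f : Fin n → F) (a : F) (hee : Cfsg.hermForm n F q e e = 0)
    (hff : Cfsg.hermForm n F q f f = 0) (hef : Cfsg.hermForm n F q e f = 1)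
    (hfe : Cfsg.hermForm n F q f e = 1) (k : ℕ) :
    hypDil q e f a ^ k = hypDil q e f (a ^ k) := by
  induction k with
  | zero => rw [pow_zero, pow_zero, hypDil_one80]
  | succ k ih => rw [pow_succ, pow_succ, ih, hypDil_mul80 e f _ _ hee hff hef hfe]

end tools

/-- [GTOR] the torus element. -/
theorem pkgGTor : PkgGTor.{u} := by
  intro F _ _ q hF n hn lam μ hlam hμ0 hμq
  classical
  have hq0 : q ≠ 0 := by
    rintro rfl
    have h1 : 0 < Fintype.card F := Fintype.card_pos
    rw [hF] at h1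
    simp at h1
  have hl : lam * lam ^ q = -1 := by rw [← hlam]; ring
  have hm1 : ((-1 : F)) ^ q = -1 := by
    have h1 : ((-1 : F)) ^ q = (lam ^ (q + 1)) ^ q := by rw [hlam]
    rw [h1, norm_fixed hF, hlam]
  obtain ⟨x, hx⟩ := exists_trace_eq hF (-1 : F) hm1
  set e : Fin n → F := vA n lam with he
  set f : Fin n → F :=
    fun i => if (i : ℕ) = 0 then x + 1 else if (i : ℕ) = 1 then lam * x else 0 with hf
  have he2 : ∀ i : Fin n, 2 ≤ (i : ℕ) → e i = 0 := by
    intro i hi
    have h6 : (i : ℕ) ≠ 0 := by omega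
    have h7 : (i : ℕ) ≠ 1 := by omega
    simp [he, vA, h6, h7]
  have hf2 : ∀ i : Fin n, 2 ≤ (i : ℕ) → f i = 0 := by
    intro i hi
    have h6 : (i : ℕ) ≠ 0 := by omega
    have h7 : (i : ℕ) ≠ 1 := by omega
    simp [hf, h6, h7]
  have he0 : e ⟨0, by omega⟩ = 1 := by simp [he, vA]
  have he1 : e ⟨1, by omega⟩ = lam := by simp [he, vA]
  have hf0 : f ⟨0, by omega⟩ = x + 1 := by simp [hf]
  have hf1 : f ⟨1, by omega⟩ = lam * x := by simp [hf]
  have hx1 : (x + 1) ^ q = x ^ q + 1 := by rw [conj_add hF, one_pow]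
  have hee : Cfsg.hermForm n F q e e = 0 := by
    rw [herm_two80 hn e e he2, he0, he1, one_pow]
    linear_combination hl
  have hff : Cfsg.hermForm n F q f f = 0 := by
    rw [herm_two80 hn f f hf2, hf0, hf1, hx1, mul_pow]
    linear_combination hx + x * x ^ q * hl
  have hef : Cfsg.hermForm n F q e f = 1 := by
    rw [herm_two80 hn e f he2, he0, he1, hf0, hf1, hx1, mul_pow]
    linear_combination x ^ q * hl
  have hfe : Cfsg.hermForm n F q f e = 1 := by
    rw [herm_two80 hn f e hf2, he0, he1, hf0, hf1, one_pow]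
    linear_combination x * hl
  have hdet : (hypDil q e f μ).det = 1 := by
    rw [det_hypDil e f μ hef hfe, hμq, mul_inv_cancel₀ hμ0]
  have hM : IsHermIso n F q (hypDil q e f μ) := isHermIso_hypDil hF e f μ hμ0 hee hff hef hfe
  refine ⟨suMk (hypDil q e f μ) hdet hM, ?_, ?_, ?_, ?_⟩
  · show hypDil q e f μ *ᵥ e = μ • e
    rw [hypDil_mulVec e f μ hff, hef, hee, mul_one, mul_zero, zero_smul, add_zero]
    module
  · intro v hv i hi
    show (hypDil q e f μ *ᵥ v) i = 0
    rw [hypDil_mulVec e f μ hff]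
    simp only [Pi.add_apply, Pi.smul_apply, smul_eq_mul]
    rw [hv i hi, he2 i hi, hf2 i hi]
    ring
  · intro v hv
    show hypDil q e f μ *ᵥ v = v
    rw [hypDil_mulVec e f μ hff, herm_zero80 hq0 v f hv hf2, herm_zero80 hq0 v e hv he2,
      mul_zero, mul_zero, zero_smul, zero_smul, add_zero, add_zero]
  · apply su_ext
    have h1 : mat (suMk (hypDil q e f μ) hdet hM ^ orderOf μ : ↥(Cfsg.SU n F q)) =
        hypDil q e f μ ^ orderOf μ := by
      simp only [mat, Subgroup.coe_pow, Matrix.SpecialLinearGroup.coe_pow]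
      rfl
    show mat (suMk (hypDil q e f μ) hdet hM ^ orderOf μ : ↥(Cfsg.SU n F q)) = _
    rw [h1, hypDil_pow80 e f μ hee hff hef hfe, pow_orderOf_eq_one, hypDil_one80]
    simp

end Cfsg.Agent.Lib.Helper80.SUG
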